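import Cfsg.Agent.Lib.Helper98.S11.Data.Root
import Cfsg.Agent.Lib.Helper98.S11.Data.Sp

set_option autoImplicit false
set_option maxRecDepth 100000

namespace Cfsg.Agent.Lib.Helper98.S11

theorem PR11 (pk : Pkgs11) : P [g11c] :=
  root_rule pk g11c g11c_valid g11c_order nsc EN0 EPN 110 nsc_valid hEN (nsc_norm pk) TT Sp TT_zero
    root_all (Sp_ok pk)

end Cfsg.Agent.Lib.Helper98.S11
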