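import Cfsg.Agent.Lib.Helper98.S11.Data.MB
import Cfsg.Agent.Lib.Helper98.S11.Data.MC0

set_option autoImplicit false
set_option maxRecDepth 100000

namespace Cfsg.Agent.Lib.Helper98.S11

set_option Elab.async false

theorem chunksM : ∀ Q < 20, ∃ a b c : ℕ,
    allB 252 (fun j => chkNodeE EM 7920 TTM 5040 RM (accr (chunkOf TTM Q) 40 j)
    (accr a 40 j) (accr b 72 j) (accr c 24 j)) = true := by
  intro Q hQ
  obtain ⟨G, hG⟩ : ∃ G, G = Q / 20 := ⟨_, rfl⟩
  have hG' : G < 1 := by omega
  interval_cases G
  · exact grpM_0 Q (by omega) (by omega)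

theorem seedM_0 (pk : Pkgs11) : Valid 116977772945 ∧ P (116977772945 :: gsM) :=
  have hv : Valid 116977772945 := (chkInv_spec (c := 116977772945) (d := 116977772945) (by decide +kernel)).1
  ⟨hv, three_rule pk (116977772945 :: gsM) g11c 106 4 (forall_cons hv gsM_valid)
    (List.mem_cons_of_mem _ (List.mem_cons_self ..)) g11c_order (by decide +kernel)⟩

theorem seedM_1 (pk : Pkgs11) : Valid 116977919355 ∧ P (116977919355 :: gsM) :=
  have hv : Valid 116977919355 := (chkInv_spec (c := 116977919355) (d := 140557249855) (by decide +kernel)).1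
  ⟨hv, three_rule pk (116977919355 :: gsM) g11c 106 2 (forall_cons hv gsM_valid)
    (List.mem_cons_of_mem _ (List.mem_cons_self ..)) g11c_order (by decide +kernel)⟩

theorem seedM_2 (pk : Pkgs11) : Valid 116979383455 ∧ P (116979383455 :: gsM) :=
  have hv : Valid 116979383455 := (chkInv_spec (c := 116979383455) (d := 119121361755) (by decide +kernel)).1
  ⟨hv, three_rule pk (116979383455 :: gsM) g11c 7 5 (forall_cons hv gsM_valid)
    (List.mem_cons_of_mem _ (List.mem_cons_self ..)) g11c_order (by decide +kernel)⟩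

theorem seedM_3 (pk : Pkgs11) : Valid 116979676275 ∧ P (116979676275 :: gsM) :=
  have hv : Valid 116979676275 := (chkInv_spec (c := 116979676275) (d := 144844427475) (by decide +kernel)).1
  ⟨hv, three_rule pk (116979676275 :: gsM) g11c 1502 2 (forall_cons hv gsM_valid)
    (List.mem_cons_of_mem _ (List.mem_cons_self ..)) g11c_order (by decide +kernel)⟩

theorem seedM_4 (pk : Pkgs11) : Valid 117016425185 ∧ P (117016425185 :: gsM) :=
  have hv : Valid 117016425185 := (chkInv_spec (c := 117016425185) (d := 121654693985) (by decide +kernel)).1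
  ⟨hv, three_rule pk (117016425185 :: gsM) g11c 1 2 (forall_cons hv gsM_valid)
    (List.mem_cons_of_mem _ (List.mem_cons_self ..)) g11c_order (by decide +kernel)⟩

theorem seedM_5 (pk : Pkgs11) : Valid 117020085435 ∧ P (117020085435 :: gsM) :=
  have hv : Valid 117020085435 := (chkInv_spec (c := 117020085435) (d := 173295697135) (by decide +kernel)).1
  ⟨hv, three_rule pk (117020085435 :: gsM) g11c 31 4 (forall_cons hv gsM_valid)
    (List.mem_cons_of_mem _ (List.mem_cons_self ..)) g11c_order (by decide +kernel)⟩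

theorem seedM_6 (pk : Pkgs11) : Valid 117034433615 ∧ P (117034433615 :: gsM) :=
  have hv : Valid 117034433615 := (chkInv_spec (c := 117034433615) (d := 194341841815) (by decide +kernel)).1
  ⟨hv, three_rule pk (117034433615 :: gsM) g11c 31 8 (forall_cons hv gsM_valid)
    (List.mem_cons_of_mem _ (List.mem_cons_self ..)) g11c_order (by decide +kernel)⟩

theorem seedM_7 (pk : Pkgs11) : Valid 117604700565 ∧ P (117604700565 :: gsM) :=
  have hv : Valid 117604700565 := (chkInv_spec (c := 117604700565) (d := 175651873265) (by decide +kernel)).1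
  ⟨hv, three_rule pk (117604700565 :: gsM) g11c 5 2 (forall_cons hv gsM_valid)
    (List.mem_cons_of_mem _ (List.mem_cons_self ..)) g11c_order (by decide +kernel)⟩

theorem seedM_8 (pk : Pkgs11) : Valid 121731998465 ∧ P (121731998465 :: gsM) :=
  have hv : Valid 121731998465 := (chkInv_spec (c := 121731998465) (d := 121731998465) (by decide +kernel)).1
  ⟨hv, three_rule pk (121731998465 :: gsM) g11c 31 8 (forall_cons hv gsM_valid)
    (List.mem_cons_of_mem _ (List.mem_cons_self ..)) g11c_order (by decide +kernel)⟩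

theorem repsM_8 (pk : Pkgs11) : ∀ r ∈ [121731998465], Valid r ∧ P (r :: gsM) :=
  forall_cons (seedM_8 pk) (forall_nil)

theorem repsM_7 (pk : Pkgs11) : ∀ r ∈ [117604700565, 121731998465], Valid r ∧ P (r :: gsM) :=
  forall_cons (seedM_7 pk) (repsM_8 pk)

theorem repsM_6 (pk : Pkgs11) : ∀ r ∈ [117034433615, 117604700565, 121731998465], Valid r ∧ P (r :: gsM) :=
  forall_cons (seedM_6 pk) (repsM_7 pk)

theorem repsM_5 (pk : Pkgs11) : ∀ r ∈ [117020085435, 117034433615, 117604700565, 121731998465], Valid r ∧ P (r :: gsM) :=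
  forall_cons (seedM_5 pk) (repsM_6 pk)

theorem repsM_4 (pk : Pkgs11) : ∀ r ∈ [117016425185, 117020085435, 117034433615, 117604700565, 121731998465], Valid r ∧ P (r :: gsM) :=
  forall_cons (seedM_4 pk) (repsM_5 pk)

theorem repsM_3 (pk : Pkgs11) : ∀ r ∈ [116979676275, 117016425185, 117020085435, 117034433615, 117604700565, 121731998465], Valid r ∧ P (r :: gsM) :=
  forall_cons (seedM_3 pk) (repsM_4 pk)

theorem repsM_2 (pk : Pkgs11) : ∀ r ∈ [116979383455, 116979676275, 117016425185, 117020085435, 117034433615, 117604700565, 121731998465], Valid r ∧ P (r :: gsM) :=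
  forall_cons (seedM_2 pk) (repsM_3 pk)

theorem repsM_1 (pk : Pkgs11) : ∀ r ∈ [116977919355, 116979383455, 116979676275, 117016425185, 117020085435, 117034433615, 117604700565, 121731998465], Valid r ∧ P (r :: gsM) :=
  forall_cons (seedM_1 pk) (repsM_2 pk)

theorem repsM_0 (pk : Pkgs11) : ∀ r ∈ [116977772945, 116977919355, 116979383455, 116979676275, 117016425185, 117020085435, 117034433615, 117604700565, 121731998465], Valid r ∧ P (r :: gsM) :=
  forall_cons (seedM_0 pk) (repsM_1 pk)

theorem P_M (pk : Pkgs11) : P gsM :=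
  node_rule_ch pk gsM EM EPM 7920 gsM_valid hEM TTM 20 5040 RM (by norm_num) (by norm_num)
    TTM_zero chunksM (repsM_0 pk) (goodM pk)

end Cfsg.Agent.Lib.Helper98.S11
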